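import Mathlib
import Cfsg.Agent.Lib.MultC.F3
import Cfsg.Agent.Lib.MultC.Fi24.CocD
import Cfsg.Agent.Lib.Fischer.D24
import Cfsg.Agent.Lib.Fischer.Gens

/-! the relations of the triple cover of `Fi24` on the cocycle -/

set_option autoImplicit false
set_option maxRecDepth 100000
set_option Elab.async false

namespace CfsgLib.MultC.Fi24

open CfsgLib.Comput CfsgLib.MultC CfsgLib.MultC.F3 CfsgLib.Fischer

/-- one letter -/
noncomputable def st (m T : ℕ) : ℕ := add3 306936 (nth 0 CL m) (step 306936 12 W24 m T)

/-- one Coxeter relation -/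
noncomputable def cx (i : ℕ) : Bool := eqChk st 0 (nth ([], []) (coxE 12) i)

theorem cx0 : allRg cx 0 20 = true := by decide +kernel
theorem cx1 : allRg cx 20 20 = true := by decide +kernel
theorem cx2 : allRg cx 40 20 = true := by decide +kernel
theorem cx3 : allRg cx 60 18 = true := by decide +kernel

theorem cx_all : ∀ i < 78, cx i = true :=
  forall_lt_add (forall_lt_add (forall_lt_add (allRg_zero cx0) (allRg_sound cx1)) (allRg_sound cx2)) (allRg_sound cx3)

theorem le_ok : Nat.beq (actL st [leW] 0) 0 = true := by decide +kernel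

theorem z_ok : Nat.beq (actL st [zW] 0) (Nat.pred (Nat.pow 2 306936)) = true := by decide +kernel

end CfsgLib.MultC.Fi24
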