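import Mathlib
import Cfsg.Agent.Lib.MultC.Fi24.LowC
import Cfsg.Agent.Lib.Fischer.Model24

/-! the triple cover of `Fi24'` -/

set_option autoImplicit false
set_option maxRecDepth 100000

namespace CfsgLib.MultC.Fi24

open CfsgLib.Comput CfsgLib.MultC CfsgLib.MultC.F3 CfsgLib.MultC.ModExt CfsgLib.Fischer Cfsg Cfsg.Spor
  Multiplicative SemidirectProduct

/-- the sign -/
noncomputable def sg : Fi24 →* ℤˣ := exists_sign24.choose

theorem sg_g : ∀ m < 12, sg (g24 m) = -1 := exists_sign24.choose_spec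

theorem mem_comm_iff {x : Fi24} : x ∈ commutator Fi24 ↔ sg x = 1 := by
  have h1 : commutator Fi24 ≤ sg.ker := Abelianization.commutator_subset_ker sg
  refine ⟨fun h => h1 h, fun h => ?_⟩
  by_contra hx
  have h2 := (Subgroup.mul_mem_iff_of_index_two index_commutator24 (a := x) (b := g24 11)).2
    (iff_of_false hx l_not_mem24)
  have h3 : sg (x * g24 11) = 1 := h1 h2
  rw [map_mul, h, sg_g 11 (by norm_num)] at h3
  exact absurd h3 (by decide)

/-- the lifted generators -/
noncomputable def y (m : ℕ) : SD Fi24 (QF pi24 sg) := inl (ofAdd (dec pi24 sg (nth 0 CL m))) * inr (g24 m)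

theorem evL_y (l : List ℕ) : Comput.evL y l = inl (ofAdd (dec pi24 sg (actL st l 0))) * inr (Comput.evL g24 l) :=
  evL_SD' (dec_zero _ _) (dec_add3 _ _) (dec_step W24_ok pi24_g sg_g fun _ => g24_of_le) _ l

theorem cox_y : Cox y 4095 := by
  refine Cox.of_eqns (n := 12) le_rfl (fun e he => ?_) fun m hm => ?_
  · obtain ⟨i, hi, rfl⟩ := List.getElem_of_mem he
    have h1 : Comput.evL g24 (coxE 12)[i].1 = Comput.evL g24 (coxE 12)[i].2 := pi24_inj (by
      rw [map_evL, map_evL, funext pi24_g]; exact hc24 _ he)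
    have h2 := cx_all i (hi.trans_eq (by decide +kernel))
    rw [cx, nth_eq_getD, List.getD_eq_getElem _ _ hi] at h2
    change Comput.evL y _ = Comput.evL y _
    rw [evL_y, evL_y, h1, Nat.eq_of_beq_eq_true h2]
  · rw [y, g24_of_le hm, nth_eq_getD, List.getD_eq_default _ _ hm, dec_zero]
    simp

theorem le_y : ev y leW = 1 := by
  rw [← evL_one, evL_y, Nat.eq_of_beq_eq_true le_ok, evL_one, r24.le, dec_zero]
  simp

theorem z_y : ev y zW = inV Fi24 (cst pi24 sg) (ofAdd (VF.mk sg 1)) := by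
  rw [← evL_one, evL_y, Nat.eq_of_beq_eq_true z_ok, evL_one, r24.z, dec_full, map_one, mul_one]
  rfl

instance : (inV Fi24 (cst pi24 sg)).range.Normal := normal_inV (cst_smul _ _)

theorem exists_rho : ∃ ρ : Fi24 →* SD Fi24 (QF pi24 sg) ⧸ (inV Fi24 (cst pi24 sg)).range,
    ∀ m, ρ (g24 m) = QuotientGroup.mk' _ (y m) := by
  obtain ⟨ρ, h⟩ := R24.lift (g := fun m => QuotientGroup.mk' (inV Fi24 (cst pi24 sg)).range (y m))
    ⟨cox_y.map _, by rw [← map_ev, le_y, map_one], by
      rw [← map_ev, z_y]; exact (QuotientGroup.eq_one_iff _).2 ⟨_, rfl⟩⟩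
  refine ⟨ρ, fun m => ?_⟩
  by_cases hm : m < 12
  · exact h m hm
  · rw [y, g24_of_le (not_lt.1 hm), nth_eq_getD, List.getD_eq_default _ _ (not_lt.1 hm), dec_zero]
    simp

theorem far : ∀ i < 12, ∀ j < 12, ∃ k < 12, adjY i k = false ∧ adjY k j = false := by decide +kernel

theorem low : Low Fi24' 3 := by
  obtain ⟨ρ, hρ⟩ := exists_rho
  obtain ⟨E, ι, π, x, X, hx, hy, hι⟩ := exists_ext (cst_inj pi24 sg) (cst_smul _ _) cl_g24 (y := y)
    (fun m => by simp [y]) ρ hρ
  have C : Cox x 4095 := ⟨fun m => Subtype.ext (by simpa [hy] using cox_y.inv m),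
    fun a b ha hb h => Subtype.ext (by simpa [hy] using cox_y.comm a b ha hb h),
    fun a b ha hb h => Subtype.ext (by simpa [hy] using cox_y.braid a b ha hb h)⟩
  have hz : ev x zW = ι (ofAdd (VF.mk sg 1)) := Subtype.ext (by
    rw [hι, ← z_y]; exact (map_ev E.subtype x zW).trans (congrArg (ev · zW) (funext hy)))
  let τ := Schur.restrictExt π (commutator Fi24)
  have hu : ∀ i < 12, ∀ j < 12, x i * x j ∈ (commutator Fi24).comap π := fun i hi j hj =>
    mem_comm_iff.2 (by rw [map_mul, map_mul, hx, hx, sg_g i hi, sg_g j hj]; decide)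
  let u : Fin 12 → Fin 12 → (commutator Fi24).comap π := fun i j => ⟨_, hu i i.2 j j.2⟩
  have tb : ∀ i < 12, Nat.testBit 4095 i = true := by decide
  have h2 : ∀ i j, Abelianization.of (u i j) ^ 2 = 1 := fun i j => by
    obtain ⟨k, hk, a, b⟩ := far i i.2 j j.2
    have e : u i j = u i ⟨k, hk⟩ * u ⟨k, hk⟩ j := Subtype.ext (by
      change x i * x j = x i * x k * (x k * x j)
      rw [mul_assoc, ← mul_assoc (x k), C.inv, one_mul])
    have e1 : u i ⟨k, hk⟩ ^ 2 = 1 := Subtype.ext (C.sq_one (tb i i.2) (tb k hk) a)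
    have e2 : u ⟨k, hk⟩ j ^ 2 = 1 := Subtype.ext (C.sq_one (tb k hk) (tb j j.2) b)
    rw [e, map_mul, mul_pow, ← map_pow, ← map_pow, e1, e2, map_one, one_mul]
  let z := (u 3 2 * u 1 0 * u 10 11 * u 3 4 * u 5 6 * u 9 3 * u 7 8) ^ 17
  have hz' : (z : E) = ι (ofAdd (VF.mk sg 1)) := by
    rw [← hz, ev_zW]
    simp only [z, u, SubgroupClass.coe_pow, Subgroup.coe_mul, mul_assoc]
    rfl
  have h3 : z ^ 3 = 1 := Subtype.ext (by
    rw [SubgroupClass.coe_pow, hz', ← map_pow]; exact map_one ι)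
  have h4 : Abelianization.of z ^ 2 = 1 := by
    simp only [z, map_pow, map_mul]
    rw [← pow_mul, mul_comm 17, pow_mul]
    simp only [mul_pow, h2, one_mul, one_pow]
  have h5 : z ∈ Schur.stemKer τ := by
    refine ⟨Schur.restrictExt_eq_one_iff.2 ((X.ker _).2 ⟨_, hz'.symm⟩), ?_⟩
    have := congrArg Abelianization.of h3
    rw [map_pow, pow_succ, h4, one_mul, map_one] at this
    exact (Abelianization.ker_of _).le this
  have h6 : z ≠ 1 := fun h => by
    rw [h] at hz'
    exact absurd (show (0 : ZMod 3) = 1 from X.inj ((map_one ι).trans hz')) (by decide)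
  have C' : Schur.IsCentralExt τ := ⟨Schur.restrictExt_surjective X.surj _, fun a ha => by
    obtain ⟨v, hv⟩ := (X.ker _).1 (Schur.restrictExt_eq_one_iff.1 ha)
    refine Subgroup.mem_center_iff.2 fun b => Subtype.ext ?_
    change b.1 * a.1 = a.1 * b.1
    rw [← hv, X.conj]
    change ι (ofAdd (sg (π b.1) • v)) * _ = _
    rw [mem_comm_iff.1 b.2, one_smul]⟩
  refine ⟨_, inferInstance, τ, C', ?_⟩
  have : Fact (Nat.Prime 3) := ⟨by norm_num⟩
  rw [← orderOf_eq_prime h3 h6]
  exact Nat.le_of_dvd Nat.card_pos (Subgroup.orderOf_dvd_natCard _ h5)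

end CfsgLib.MultC.Fi24
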