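import Mathlib
import Cfsg.Agent.Lib.MultC.F3
import Cfsg.Agent.Lib.MultC.Fi24.RD
import Cfsg.Agent.Lib.MultC.B24.Base
import Cfsg.Agent.Lib.Fischer.D24

/-! the action of `2^11 M24` on `24288` transpositions -/

set_option autoImplicit false
set_option maxRecDepth 100000
set_option Elab.async false

namespace CfsgLib.MultC.Fi24

open CfsgLib.Comput CfsgLib.MultC CfsgLib.MultC.F3 CfsgLib.Fischer

theorem R_ok : R.ok 306936 = true := by decide +kernel

/-- the first generator -/
def w0 : List ℕ := [1, 0, 1, 2, 1, 2, 3, 2, 3, 4, 3, 4, 5, 4, 5, 6, 5, 6, 9, 6, 5, 4, 3, 2, 3, 4, 5, 6, 7, 6, 5, 4, 3, 4, 5, 6, 7, 9]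
/-- the second generator -/
def w1 : List ℕ := [10, 0, 10, 11, 10, 11, 3, 2, 3, 7, 3, 7, 8, 7, 3, 2, 3, 4, 3, 4, 7, 8]

theorem s0_0 : allRg (subOK 306936 24288 W24 R B24.u0_0 w0) 0 5 = true := by decide +kernel
theorem s0_5 : allRg (subOK 306936 24288 W24 R B24.u0_0 w0) 5 5 = true := by decide +kernel
theorem s0_10 : allRg (subOK 306936 24288 W24 R B24.u0_0 w0) 10 5 = true := by decide +kernel
theorem s0_15 : allRg (subOK 306936 24288 W24 R B24.u0_0 w0) 15 4 = true := by decide +kernel
theorem s0 : ∀ b < 19, subOK 306936 24288 W24 R B24.u0_0 w0 b = true :=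
  forall_lt_add (forall_lt_add (forall_lt_add (allRg_zero s0_0) (allRg_sound s0_5)) (allRg_sound s0_10))
    (allRg_sound s0_15)

theorem u0_ok : B24.u0_0.ok 24288 = true := by decide +kernel

theorem s1_0 : allRg (subOK 306936 24288 W24 R B24.u0_1 w1) 0 5 = true := by decide +kernel
theorem s1_5 : allRg (subOK 306936 24288 W24 R B24.u0_1 w1) 5 5 = true := by decide +kernel
theorem s1_10 : allRg (subOK 306936 24288 W24 R B24.u0_1 w1) 10 5 = true := by decide +kernel
theorem s1_15 : allRg (subOK 306936 24288 W24 R B24.u0_1 w1) 15 4 = true := by decide +kernel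
theorem s1 : ∀ b < 19, subOK 306936 24288 W24 R B24.u0_1 w1 b = true :=
  forall_lt_add (forall_lt_add (forall_lt_add (allRg_zero s1_0) (allRg_sound s1_5)) (allRg_sound s1_10))
    (allRg_sound s1_15)

theorem u1_ok : B24.u0_1.ok 24288 = true := by decide +kernel

/-- indices of generating transpositions -/
def ix : List ℕ := [24280, 24281, 24282, 24283, 24284, 24279, 23986, 23984, 24207, 24209, 24188, 24138, 24190, 24037]
/-- generating transpositions -/
def is : List ℕ :=
  [306913, 306914, 306915, 306916, 306917, 306912, 305571, 305568, 306624, 306627, 306528, 306336, 306531, 305856]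

theorem ix_ok : ∀ j < 14, nth 0 ix j < 24288 ∧ R.fn (nth 0 ix j) = nth 0 is j := by decide +kernel

end CfsgLib.MultC.Fi24
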