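import Mathlib
import Cfsg.Agent.Lib.MultC.Fi24.SubC
import Cfsg.Agent.Lib.MultC.Fi24.Low
import Cfsg.Agent.Lib.MultC.B24.P2
import Cfsg.Agent.Lib.MultC.N24e.P3
import Cfsg.Agent.Lib.Fi3.N24a
import Cfsg.Agent.Lib.FiTool.MFi
import Cfsg.Agent.Lib.Fischer.He24
import Cfsg.Agent.Lib.Fischer.Words
import Cfsg.Agent.S2049
import Cfsg.Agent.S2054

/-! upper bounds for the multiplier of `Fi24'` -/

set_option autoImplicit false
set_option maxRecDepth 100000

namespace CfsgLib.MultC.Fi24

open CfsgLib.Comput CfsgLib.MultC CfsgLib.MultC.F3 CfsgLib.Fischer CfsgLib.ThreeTrans CfsgLib.FiTool Cfsg Cfsg.Spor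

theorem mem_comm {α : ℕ → Fi24} {l : List ℕ} (h : ∀ m ∈ l, sg (α m) = -1) (he : Even l.length) :
    (l.map α).prod ∈ commutator Fi24 := by
  rw [mem_comm_iff, map_list_prod, List.map_map, List.map_congr_left (f := sg ∘ α) (g := fun _ => -1) h, List.map_const',
    List.prod_replicate, he.neg_one_pow]

theorem sg_D {d : Fi24} (hd : d ∈ conjugatesOf (g24 0)) : sg d = -1 :=
  (isConj_iff_eq.1 (sg.map_isConj hd)).symm.trans (sg_g 0 (by norm_num))

theorem base2 : Base (⊤ : Subgroup Fi24) 306936 (cpt pt24) is :=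
  have P := m24_fi.fm.pts (ws := [2, 4, 6, 9, 10, 11, 0x20102, 0xb010b, 0x30203, 0x40304, 0x50405, 0x80408, 0x60506,
    0x70607]) (is := is) (by decide +kernel)
  m24_fi.fm.base_of_top P (m24_fi.fm.cl_eq_top P (c := [(305570, 7, 0), (306913, 0, 0), (306626, 9, 0),
    (306914, 0, 1), (306529, 11, 1), (306915, 0, 2), (305857, 14, 2), (306337, 12, 1), (306916, 0, 3),
    (306917, 0, 4), (306912, 0, 5), (306720, 0x8090c0d0b090c0a0d08090c0b0907, 0)]) (by decide +kernel)
    (by decide +kernel) (by decide))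

theorem model2 : PModel Fi24 24288 fun i => cpt pt24 (R.fn i) := by
  have hR := Net.ok_sound R_ok
  refine ⟨fun i hi j hj h => Net.fn_injective hR
    (model24.inj _ (Net.fn_lt hR (by omega)) _ (Net.fn_lt hR (by omega)) h), by norm_num,
    fun x hx => base2.2 x trivial fun b hb => ?_⟩
  obtain ⟨j, hj, rfl⟩ := exists_nth_of_mem 0 hb
  rw [← (ix_ok j hj).2]
  exact hx _ (ix_ok j hj).1

theorem p2 : PBound Fi24' 2 [] :=
  B24.P2.pb (model2.subgroup _) (AllReal.cons (IsReal.subgroup
    (mem_comm (fun m hm => sg_g m ((by decide : ∀ m ∈ w0, m < 12) m hm)) (by decide))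
    (acts_sub (k := 19) model24.acts (Net.ok_sound R_ok) (Net.ok_sound u0_ok) (by norm_num) (by norm_num) s0))
    (AllReal.cons (IsReal.subgroup
    (mem_comm (fun m hm => sg_g m ((by decide : ∀ m ∈ w1, m < 12) m hm)) (by decide))
    (acts_sub (k := 19) model24.acts (Net.ok_sound R_ok) (Net.ok_sound u1_ok) (by norm_num) (by norm_num) s1))
    AllReal.nil)) card24'

theorem m3 : Fi3.M24 (conjugatesOf (g24 0)) g24 pt24 := ⟨m24_fi.fm, card24, sg, fun _ => sg_D⟩

theorem real3 {N : Net} {l : List ℕ} (h1 : ∀ m ∈ l, m < 12) (h2 : Even l.length)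
    (h : wordOK 1134 11 Fi3.WN N [pk l] = true) : IsReal Fi24' 1134 (cpt (Fi3.pN pt24)) N := by
  have A := acts_of_table (lab_idTab (k := 11) (by norm_num)) m3.nmN.acts h
  rw [evL_one, ev_pk _ _ fun m hm => (h1 m hm).trans (by norm_num)] at A
  exact IsReal.subgroup (mem_comm (fun m hm => sg_D (m3.aN_mem (h1 m hm))) h2) A

theorem model3 : PModel Fi24 1134 (cpt (Fi3.pN pt24)) :=
  ⟨m3.nmN.inj, by norm_num, fun x hx => m3.baseN.2 x trivial fun b hb => hx b (m3.baseN.1 b hb)⟩

theorem p3 : PBound Fi24' 3 [3] :=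
  N24e.P3.pb (model3.subgroup _)
    (AllReal.cons (real3 (l := [0, 1, 2, 3, 4, 11]) (by decide) (by decide) (by decide +kernel))
    (AllReal.cons (real3 (l := [5, 6, 7, 8, 9, 10, 2, 0]) (by decide) (by decide) (by decide +kernel))
    AllReal.nil)) card24'

theorem pSub {K : Type} [Group K] [IsSimpleGroup K] {a q : ℕ} (φ : K →* Fi24) (hφ : Function.Injective φ)
    (hK : HasCyclicSchurMultiplier K 1) (ha : Nat.card K = a) (hp : ¬ a.Prime) (h0 : 0 < a)
    (hq : 1255205709190661721292800 = a * q) {p : ℕ} (h : p.Prime) (h' : ¬ p ∣ q) : PBound Fi24' p [] := by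
  obtain ⟨L, ⟨e⟩⟩ := exists_sub_commutator φ hφ (perfect_of_simple (ha ▸ hp))
  have hi : Function.Injective (L.subtype.comp e.toMonoidHom) := L.subtype_injective.comp e.injective
  refine pBound_of_inj _ hi hK h ?_
  rwa [index_eq_of_card card24' ((Nat.card_congr (MonoidHom.ofInjective hi).toEquiv).symm.trans ha) hq h0]

theorem others (r : ℕ) (hr : r.Prime) (hd : r ∣ Nat.card Fi24') (h3 : r ≠ 3) : PBound Fi24' r [] := by
  by_cases h2 : r = 2
  · exact h2 ▸ p2
  by_cases h5 : r = 5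
  · have := simple23
    exact pSub psi24 psi24_inj Agent.S2054.result card23 (by norm_num) (by norm_num) (q := 306936) (by norm_num) hr
      (by rw [h5]; norm_num)
  by_cases h7 : r = 7
  · have := He.simple
    obtain ⟨φ, hφ⟩ := exists_he24_inj
    exact pSub φ hφ Agent.S2049.result He.card_eq (by norm_num) (by norm_num) (q := 311435513985024) (by norm_num) hr
      (by rw [h7]; norm_num)
  exact pBound_of_not_mem card24' [2, 3, 5, 7] [11, 13, 17, 23, 29] 21 (by decide +kernel) (by simp; norm_num)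
    (by decide +kernel) hr hd (by simp [h2, h3, h5, h7])

end CfsgLib.MultC.Fi24
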